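import Cfsg.Agent.UPairs.Transport
import Cfsg.Agent.UGeom.Involution

set_option autoImplicit false

/-! Elements of prime order stabilizing no pair, and involutions. -/

namespace CfsgLib.UPairs

open Matrix CfsgLib.UGeom

variable {F : Type*} [Field F] [Fintype F] {q n : ℕ}

local notation "H" => Cfsg.hermForm n F q
local notation "Vn" => (Fin n → F)
local notation "mat" => (fun (g : GL (Fin n) F) => (g : Matrix (Fin n) (Fin n) F))
local notation "S₀" => Cfsg.GU n F q ⊓ Cfsg.Geo.specialLinear (Fin n) F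

/-- A fixed pair meets each non-degenerate eigenspace in halves. -/
theorem even_eigen (C : Conj F q) {U W : Submodule F Vn} (h : Pair q U W) {x : GL (Fin n) F}
    (hU : ∀ u ∈ U, mat x *ᵥ u ∈ U) (hW : ∀ w ∈ W, mat x *ᵥ w ∈ W) (α : F) (E : Submodule F Vn)
    (hmem : ∀ v, v ∈ E ↔ mat x *ᵥ v = α • v) (hnd : ∀ u ∈ E, (∀ v ∈ E, H u v = 0) → u = 0) :
    Even (Module.finrank F E) := by
  have hdec : ∀ v ∈ E, ∃ a ∈ U ⊓ E, ∃ b ∈ W ⊓ E, a + b = v := by
    intro v hv
    obtain ⟨a, ha, b, hb, rfl⟩ := Submodule.mem_sup.1 (show v ∈ U ⊔ W by rw [h.compl.sup_eq_top]; trivial)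
    have e : mat x *ᵥ a - α • a = -(mat x *ᵥ b - α • b) := by
      have h0 := (hmem _).1 hv
      simp only [Matrix.mulVec_add, smul_add] at h0
      simp only
      linear_combination (norm := module) h0
    have hz : mat x *ᵥ a - α • a = 0 := Submodule.disjoint_def.1 h.compl.disjoint _
      (U.sub_mem (hU a ha) (U.smul_mem _ ha))
      (by rw [e]; exact W.neg_mem (W.sub_mem (hW b hb) (W.smul_mem _ hb)))
    rw [hz, eq_comm, neg_eq_zero] at e
    exact ⟨a, ⟨ha, (hmem a).2 (sub_eq_zero.1 hz)⟩, b, ⟨hb, (hmem b).2 (sub_eq_zero.1 e)⟩, rfl⟩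
  have key : ∀ {A B : Submodule F Vn}, (∀ u ∈ A, ∀ v ∈ A, H u v = 0) →
      (∀ v ∈ E, ∃ a ∈ A ⊓ E, ∃ b ∈ B ⊓ E, a + b = v) →
      Module.finrank F ↥(A ⊓ E) ≤ Module.finrank F ↥(B ⊓ E) := fun hA hsplit =>
    finrank_le_of_pairing C fun a ha h0 => hnd a ha.2 fun v hv => by
      obtain ⟨a', ha', b', hb', rfl⟩ := hsplit v hv
      rw [form_add_right C, hA a ha.1 a' ha'.1, h0 b' hb', add_zero]
  have h1 := key (B := W) h.left hdec
  have h2 := key (B := U) h.right fun v hv => by
    obtain ⟨a, ha, b, hb, rfl⟩ := hdec v hv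
    exact ⟨b, hb, a, ha, add_comm b a⟩
  have h3 : (U ⊓ E) ⊔ (W ⊓ E) = E := le_antisymm (sup_le inf_le_right inf_le_right) fun v hv => by
    obtain ⟨a, ha, b, hb, rfl⟩ := hdec v hv
    exact Submodule.mem_sup.2 ⟨a, ha, b, hb, rfl⟩
  have h4 : (U ⊓ E) ⊓ (W ⊓ E) = ⊥ :=
    le_bot_iff.1 (le_trans (inf_le_inf inf_le_left inf_le_left) h.compl.inf_eq_bot.le)
  have h5 := Submodule.finrank_sup_add_finrank_inf_eq (U ⊓ E) (W ⊓ E)
  rw [h3, h4, finrank_bot] at h5
  exact ⟨Module.finrank F ↥(U ⊓ E), by omega⟩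

/-- An element of odd order modulo scalars fixes the members of a stable pair. -/
theorem fixes_of_pow_odd (C : Conj F q) {U W : Submodule F Vn} (h : Pair q U W) {x : GL (Fin n) F}
    {s : ℕ} (hd : 0 < Module.finrank F U) (hs : x ^ (2 * s + 1) = 1) (hx : Stable x U W) :
    (∀ u ∈ U, mat x *ᵥ u ∈ U) ∧ ∀ w ∈ W, mat x *ᵥ w ∈ W := by
  rcases hx with hx | ⟨h1, h2⟩
  · exact hx
  exfalso
  have heven : ∀ k : ℕ, ∀ u ∈ U, mat (x ^ (2 * k)) *ᵥ u ∈ U := by
    intro k
    induction k with
    | zero => intro u hu; simpa using hu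
    | succ k ih =>
      intro u hu
      rw [show 2 * (k + 1) = 2 * k + 1 + 1 by ring, pow_succ', pow_succ']
      simp only [Units.val_mul, ← Matrix.mulVec_mulVec]
      exact h2 _ (h1 _ (ih u hu))
  obtain ⟨u, hu, hu0⟩ := U.exists_mem_ne_zero_of_ne_bot fun hb => by rw [hb, finrank_bot] at hd; omega
  apply hu0
  refine Submodule.disjoint_def.1 h.compl.disjoint _ hu ?_
  have := h1 _ (heven s u hu)
  simp only [Matrix.mulVec_mulVec, ← Units.val_mul, ← pow_succ', hs, Units.val_one, Matrix.one_mulVec] at this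
  exact this

/-- A transvection. -/
theorem exists_transvection (C : Conj F q) {p : ℕ} [Fact p.Prime] [CharP F p] (hn : 4 ≤ n) :
    ∃ x ∈ S₀, x ^ p = 1 ∧ (∀ z : F, mat x ≠ z • 1) ∧
      ∀ U W : Submodule F Vn, Pair q U W → 2 ≤ Module.finrank F U → ¬ Stable x U W := by
  classical
  let i : Fin n := ⟨0, by omega⟩
  let j : Fin n := ⟨1, by omega⟩
  have hij : i ≠ j := by simp [i, j]
  obtain ⟨μ, -, hμ⟩ := CfsgLib.Hermitian.exists_norm C.ne_id C.invol (neg_ne_zero.2 (one_ne_zero (α := F)))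
    (by rw [map_neg, map_one])
  let w : Vn := Pi.single i 1 + μ • Pi.single j 1
  have hw : H w w = 0 := by
    simp only [w, form_add_left, form_add_right C, form_smul_left, form_smul_right C, form_single_right C]
    simp [Pi.single_apply, hij, hij.symm]
    linear_combination hμ
  have hwi : w i = 1 := by simp [w, hij]
  have hw0 : w ≠ 0 := fun h => by rw [h] at hwi; simp at hwi
  obtain ⟨t, ht⟩ : ∃ t : F, C.σ t ≠ t := by
    by_contra hall; push Not at hall; exact C.ne_id (RingHom.ext hall)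
  set k := t - C.σ t with hkdef
  have hk0 : k ≠ 0 := sub_ne_zero.2 (Ne.symm ht)
  have hk : k + C.σ k + k * C.σ k * H w w = 0 := by rw [hw, hkdef, map_sub, C.invol]; ring
  let x := (qreflGU C w k hk).1
  have hxv : ∀ v, mat x *ᵥ v = v + (k * H v w) • w := fun v => qrefl_mulVec w k v
  have hdet : x ∈ Cfsg.Geo.specialLinear (Fin n) F := by
    refine Units.ext ?_
    show (qrefl n q w k).det = 1
    rw [qrefl_det, hw, mul_zero, add_zero]
  have hpow : ∀ e : ℕ, ∀ v, mat (x ^ e) *ᵥ v = v + ((e : F) * (k * H v w)) • w := by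
    intro e
    induction e with
    | zero => intro v; simp
    | succ e ih =>
      intro v
      rw [pow_succ']
      simp only [Units.val_mul, ← Matrix.mulVec_mulVec]
      simp only at ih hxv
      rw [ih, hxv, form_add_left, form_smul_left, hw, mul_zero, add_zero, add_assoc, ← add_smul]
      congr 2; push_cast; ring
  refine ⟨x, Subgroup.mem_inf.2 ⟨(qreflGU C w k hk).2, hdet⟩, ?_, fun z hz => ?_, ?_⟩
  · refine Units.ext (Matrix.ext_of_mulVec_single fun l => ?_)
    have := hpow p (Pi.single l 1)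
    rw [CharP.cast_eq_zero, zero_mul, zero_smul, add_zero] at this
    simpa only [Units.val_one, Matrix.one_mulVec] using this
  · obtain ⟨v, hv⟩ := exists_form_ne_zero C hw0
    have hvw : H v w ≠ 0 := fun h => hv (by rw [← form_conj C, h, map_zero])
    have h1 := hxv w
    rw [hz, Matrix.smul_mulVec, Matrix.one_mulVec, hw, mul_zero, zero_smul, add_zero] at h1
    have hz1 : z = 1 := smul_left_injective F hw0 (h1.trans (one_smul F w).symm)
    have h2 := hxv v
    rw [hz, hz1, one_smul, Matrix.one_mulVec, left_eq_add, smul_eq_zero] at h2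
    exact h2.elim (mul_ne_zero hk0 hvw) hw0
  · intro U W h hU2 hst
    have honly : ∀ {A : Submodule F Vn}, (∀ u ∈ A, ∀ v ∈ A, H u v = 0) → (∀ u ∈ A, mat x *ᵥ u ∈ A) →
        ∀ u ∈ A, H u w = 0 := by
      intro A hA hxA u hu
      by_contra hne
      have h1 := A.sub_mem (hxA u hu) hu
      rw [hxv, add_sub_cancel_left] at h1
      have hwA : w ∈ A := by
        have := A.smul_mem (k * H u w)⁻¹ h1
        rwa [smul_smul, inv_mul_cancel₀ (mul_ne_zero hk0 hne), one_smul] at this
      exact hne (hA u hu w hwA)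
    rcases hst with ⟨h1, h2⟩ | ⟨h1, -⟩
    · refine hw0 (ext_form C fun v => ?_)
      rw [form_zero_left, ← form_conj C]
      obtain ⟨a, ha, b, hb, rfl⟩ := Submodule.mem_sup.1 (show v ∈ U ⊔ W by rw [h.compl.sup_eq_top]; trivial)
      rw [form_add_left, honly h.left h1 a ha, honly h.right h2 b hb, add_zero, map_zero]
    · let φ : U →ₗ[F] F :=
        { toFun := fun u => H (u : Vn) w
          map_add' := fun a b => form_add_left _ _ _
          map_smul' := fun c a => form_smul_left _ _ _ }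
      obtain ⟨u, hu, hu0⟩ := (LinearMap.ker φ).exists_mem_ne_zero_of_ne_bot fun hb => by
        have e1 := φ.finrank_range_add_finrank_ker
        have e2 := Submodule.finrank_le (LinearMap.range φ)
        rw [hb, finrank_bot] at e1
        simp at e2
        omega
      have hxu : mat x *ᵥ (u : Vn) = u := by
        rw [hxv, show H (u : Vn) w = 0 from hu, mul_zero, zero_smul, add_zero]
      exact hu0 (Subtype.ext (Submodule.disjoint_def.1 h.compl.disjoint _ u.2 (hxu ▸ h1 _ u.2)))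

/-- A diagonal isometry of determinant one. -/
theorem diag_mem (C : Conj F q) (d : Fin n → F) (hd : ∀ i, d i * C.σ (d i) = 1) (hdet : ∏ i, d i = 1) :
    ∃ x ∈ S₀, mat x = Matrix.diagonal d := by
  have h1 : (Matrix.diagonal d).det ≠ 0 := by rw [Matrix.det_diagonal, hdet]; exact one_ne_zero
  refine ⟨GeneralLinearGroup.mkOfDetNeZero _ h1, Subgroup.mem_inf.2 ⟨fun u v => ?_, Units.ext ?_⟩, rfl⟩
  · show H (Matrix.diagonal d *ᵥ u) (Matrix.diagonal d *ᵥ v) = H u v
    rw [form_eq C, form_eq C]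
    refine Finset.sum_congr rfl fun i _ => ?_
    rw [Matrix.mulVec_diagonal, Matrix.mulVec_diagonal, map_mul]
    linear_combination (u i * C.σ (v i)) * hd i
  · show (Matrix.diagonal d).det = 1
    rw [Matrix.det_diagonal, hdet]

/-- The eigenspace of `x`. -/
def eigen (x : GL (Fin n) F) (α : F) : Submodule F Vn := LinearMap.ker (Matrix.toLin' (mat x) - α • 1)

omit [Fintype F] in
theorem mem_eigen {x : GL (Fin n) F} {α : F} {v : Vn} : v ∈ eigen x α ↔ mat x *ᵥ v = α • v := by
  simp [eigen, sub_eq_zero]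

theorem eigen_diag (C : Conj F q) {x : GL (Fin n) F} {d : Fin n → F} (hx : mat x = Matrix.diagonal d) (α : F) :
    (∀ u ∈ eigen x α, (∀ v ∈ eigen x α, H u v = 0) → u = 0) ∧
      Module.finrank F (eigen x α) = Nat.card {i // d i = α} := by
  classical
  have hmem : ∀ v, v ∈ eigen x α ↔ ∀ i, d i ≠ α → v i = 0 := by
    intro v
    rw [mem_eigen, hx, funext_iff]
    refine forall_congr' fun i => ?_
    rw [Matrix.mulVec_diagonal, Pi.smul_apply, smul_eq_mul, mul_eq_mul_right_iff, or_iff_not_imp_left]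
  refine ⟨fun u hu h0 => funext fun i => ?_, ?_⟩
  · by_cases hi : d i = α
    · have := h0 (Pi.single i 1) ((hmem _).2 fun l hl => Pi.single_eq_of_ne (fun e => hl (by rw [e]; exact hi)) _)
      rwa [form_single_right C] at this
    · exact (hmem u).1 hu i hi
  · let e : eigen x α ≃ₗ[F] ({i // d i = α} → F) :=
      { toFun := fun v i => (v : Vn) i.1
        map_add' := fun a b => rfl
        map_smul' := fun a b => rfl
        invFun := fun f => ⟨fun i => if h : d i = α then f ⟨i, h⟩ else 0, (hmem _).2 fun i hi => dif_neg hi⟩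
        left_inv := fun v => Subtype.ext (funext fun i => by
          by_cases hi : d i = α
          · simp [hi]
          · simp [hi, (hmem _).1 v.2 i hi])
        right_inv := fun f => funext fun i => by simp [i.2] }
    rw [e.finrank_eq, Module.finrank_fintype_fun_eq_card, Nat.card_eq_fintype_card]

/-- A diagonal derangement for `r ∣ q + 1`. -/
theorem exists_diag (C : Conj F q) {d : ℕ} (hn : n = 2 * d) (hd : 2 ≤ d) {r : ℕ} [hr : Fact r.Prime]
    (hr2 : r ≠ 2) (hdvd : r ∣ q + 1) :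
    ∃ x ∈ S₀, x ^ r = 1 ∧ (∀ z : F, mat x ≠ z • 1) ∧
      ∀ U W : Submodule F Vn, Pair q U W → ¬ Stable x U W := by
  classical
  obtain ⟨u, hu⟩ := exists_prime_orderOf_dvd_card' (G := Fˣ) r (by
    rw [Nat.card_units, Nat.card_eq_fintype_card, C.card]
    exact hdvd.trans ⟨q - 1, by rw [← Nat.sq_sub_sq, one_pow]⟩)
  set ζ := (u : F) with hζ
  have hζe : ∀ k : ℕ, ζ ^ k = 1 ↔ r ∣ k := fun k => by
    rw [hζ, ← Units.val_pow_eq_pow_val, Units.val_eq_one, ← orderOf_dvd_iff_pow_eq_one, hu]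
  have hζ0 : ζ ≠ 0 := u.ne_zero
  have hζ1 : ζ ≠ 1 := fun h => hr.out.ne_one (Nat.dvd_one.1 ((hζe 1).1 (by rwa [pow_one])))
  have hζ2 : ζ ^ 2 ≠ 1 := fun h => hr2 ((Nat.prime_dvd_prime_iff_eq hr.out Nat.prime_two).1 ((hζe 2).1 h))
  have hζq : ζ * C.σ ζ = 1 := by rw [C.pow, ← pow_succ']; exact (hζe _).2 hdvd
  have hζr : ζ ^ r = 1 := (hζe r).2 dvd_rfl
  set γ := (ζ ^ 2)⁻¹ with hγ
  let D : Fin n → F := fun i => if i.1 < 2 then ζ else if i.1 = 2 then γ else 1
  obtain ⟨x, hxS, hx⟩ := diag_mem C D (fun i => by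
    simp only [D]
    split_ifs
    · exact hζq
    · rw [hγ, map_inv₀, map_pow, ← mul_inv, ← mul_pow, hζq, one_pow, inv_one]
    · rw [map_one, one_mul]) (by
    obtain ⟨k, hk⟩ : ∃ k, n = k + 3 := ⟨n - 3, by omega⟩
    subst hk
    rw [Fin.prod_univ_succ, Fin.prod_univ_succ, Fin.prod_univ_succ]
    simp [D, hγ, pow_two, Nat.mod_eq_of_lt (show 2 < k + 3 by omega)]
    field_simp)
  have hr' : x ^ r = 1 := Units.ext (by
    rw [Units.val_pow_eq_pow_val, show (x : Matrix (Fin n) (Fin n) F) = _ from hx, Matrix.diagonal_pow, Units.val_one,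
      ← Matrix.diagonal_one]
    congr 1
    funext i
    simp only [Pi.pow_apply, D]
    split_ifs
    · exact hζr
    · rw [hγ, inv_pow, ← pow_mul, mul_comm, pow_mul, hζr, one_pow, inv_one]
    · rw [one_pow])
  refine ⟨x, hxS, hr', fun z hz => ?_, fun U W h hst => ?_⟩
  · rw [hx] at hz
    have h0 := congrFun (congrFun hz ⟨0, by omega⟩) ⟨0, by omega⟩
    have h3 := congrFun (congrFun hz ⟨3, by omega⟩) ⟨3, by omega⟩
    simp [D] at h0 h3
    exact hζ1 (h0.trans h3.symm)
  · obtain ⟨s, hs⟩ := hr.out.odd_of_ne_two hr2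
    obtain ⟨h1, h2⟩ := fixes_of_pow_odd C h (s := s) (by rw [(h.finrank C hn).1]; omega) (hs ▸ hr') hst
    obtain ⟨hnd, hcard⟩ := eigen_diag C hx 1
    have hev := even_eigen C h h1 h2 1 _ (fun v => mem_eigen) hnd
    have hc : Nat.card {i // D i = 1} = n - 3 := by
      rw [Nat.card_congr ((Equiv.subtypeEquivRight fun i => show D i = 1 ↔ 3 ≤ i.1 by
        have hγ1 : γ ≠ 1 := fun h => hζ2 (by simpa [hγ] using h)
        simp only [D]
        split_ifs <;> simp [hζ1, hγ1] <;> omega).trans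
        (show {i : Fin n // 3 ≤ i.1} ≃ Fin (n - 3) from
          { toFun := fun i => ⟨i.1.1 - 3, by omega⟩
            invFun := fun i => ⟨⟨i.1 + 3, by omega⟩, by simp⟩
            left_inv := fun i => Subtype.ext (Fin.ext (by have := i.2; simp; omega))
            right_inv := fun i => Fin.ext (by simp) }))]
      simp
    rw [hcard, hc] at hev
    obtain ⟨k, hk⟩ := hev
    omega

/-- An involution (modulo scalars) stabilizing no pair. -/
theorem exists_involution (C : Conj F q) (hodd : Odd q) {d : ℕ} (hn : n = 2 * d) (hd : 2 ≤ d)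
    (hval : padicValNat 2 n < padicValNat 2 (q + 1)) :
    ∃ x ∈ S₀, (∃ z : F, mat (x ^ 2) = z • 1) ∧ (∀ z : F, mat x ≠ z • 1) ∧
      ∀ U W : Submodule F Vn, Pair q U W → ¬ Stable x U W := by
  classical
  set f := padicValNat 2 n with hf
  have hdvd : 2 ^ (f + 1) ∣ q + 1 := (pow_dvd_pow 2 hval).trans pow_padicValNat_dvd
  obtain ⟨n', hn'⟩ : 2 ^ f ∣ n := pow_padicValNat_dvd
  have hodd' : Odd n' := by
    rw [Nat.odd_iff]
    by_contra h
    obtain ⟨k, hk⟩ : 2 ∣ n' := by omega
    exact pow_succ_padicValNat_not_dvd (p := 2) (n := n) (by omega)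
      ⟨k, by rw [← hf, hn', hk, pow_succ]; ring⟩
  obtain ⟨ζ, hζ⟩ := IsCyclic.exists_generator (α := Fˣ)
  have hord : orderOf ζ = (q - 1) * (q + 1) := by
    rw [orderOf_eq_card_of_forall_mem_zpowers hζ, Nat.card_units, Nat.card_eq_fintype_card, C.card,
      mul_comm, ← Nat.sq_sub_sq, one_pow]
  obtain ⟨e, he⟩ := hdvd
  have he0 : 0 < e := Nat.pos_of_ne_zero fun h => by simp [h] at he
  let ν : Fˣ := ζ ^ ((q - 1) * e)
  have hν : ν ^ (2 ^ (f + 1)) = 1 := by
    rw [← pow_mul, mul_assoc, mul_comm e, ← he, ← hord, pow_orderOf_eq_one]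
  have hν' : ν ^ (2 ^ f) ≠ 1 := by
    intro h
    rw [← pow_mul] at h
    have h1 := Nat.le_of_dvd ?_ (orderOf_dvd_of_pow_eq_one h)
    · rw [hord, mul_assoc] at h1
      have h2 := Nat.le_of_mul_le_mul_left h1 (by have := C.two_le; omega)
      rw [he, pow_succ] at h2
      have : 0 < 2 ^ f := Nat.two_pow_pos f
      nlinarith
    · exact Nat.mul_pos (Nat.mul_pos (by have := C.two_le; omega) he0) (Nat.two_pow_pos f)
  set lam := (ν : F) with hlam
  have hlam1 : lam ^ (2 ^ f) = -1 := by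
    have h1 : lam ^ (2 ^ f) * lam ^ (2 ^ f) = 1 := by
      rw [← pow_two, ← pow_mul, ← pow_succ, hlam, ← Units.val_pow_eq_pow_val, hν, Units.val_one]
    exact (mul_self_eq_one_iff.1 h1).resolve_left fun h => hν' (Units.ext (by simpa [hlam] using h))
  have hlamn : lam ^ n = -1 := by rw [hn', pow_mul, hlam1, hodd'.neg_one_pow]
  have hlamq : lam * C.σ lam = 1 := by
    rw [C.pow, ← pow_succ', hlam, ← Units.val_pow_eq_pow_val,
      show ν ^ (q + 1) = 1 by rw [he, pow_mul, hν, one_pow], Units.val_one]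
  have h2 : (2 : F) ≠ 0 := CfsgLib.UGeom.Invol.two_ne_zero' C hodd
  have hlam0 : lam ≠ 0 := ν.ne_zero
  let i₀ : Fin n := ⟨0, by omega⟩
  let D : Fin n → F := Function.update (fun _ => lam) i₀ (-lam)
  obtain ⟨x, hxS, hx⟩ := diag_mem C D (fun i => by
    by_cases hi : i = i₀
    · subst hi; simp only [D, Function.update_self, map_neg, neg_mul_neg, hlamq]
    · simp only [D, Function.update_of_ne hi, hlamq]) (by
    rw [Finset.prod_update_of_mem (Finset.mem_univ _), Finset.prod_const, neg_mul, ← pow_succ',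
      Finset.card_univ_diff, Finset.card_singleton, Fintype.card_fin, Nat.sub_add_cancel (by omega), hlamn, neg_neg])
  have hne : -lam ≠ lam := fun h => hlam0 (by
    have : 2 * lam = 0 := by linear_combination -h
    exact (mul_eq_zero.1 this).resolve_left h2)
  refine ⟨x, hxS, ⟨lam * lam, ?_⟩, fun z hz => ?_, fun U W h hst => ?_⟩
  · show ((x ^ 2 : GL (Fin n) F) : Matrix (Fin n) (Fin n) F) = _
    rw [Units.val_pow_eq_pow_val, show (x : Matrix (Fin n) (Fin n) F) = _ from hx, Matrix.diagonal_pow,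
      Matrix.smul_one_eq_diagonal]
    congr 1
    funext i
    by_cases hi : i = i₀
    · subst hi; simp [D, pow_two]
    · simp [D, Function.update_of_ne hi, pow_two]
  · rw [hx] at hz
    have h0 := congrFun (congrFun hz i₀) i₀
    have h1 := congrFun (congrFun hz ⟨1, by omega⟩) ⟨1, by omega⟩
    simp [D, i₀, Function.update_apply] at h0 h1
    exact hne (h0.trans h1.symm)
  · rcases hst with ⟨h1, h2'⟩ | ⟨h1, -⟩
    · obtain ⟨hnd, hcard⟩ := eigen_diag C hx (-lam)
      have hev := even_eigen C h h1 h2' (-lam) _ (fun v => mem_eigen) hnd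
      have hc : Nat.card {i // D i = -lam} = 1 := by
        rw [Nat.card_congr ((Equiv.subtypeEquivRight fun i => show D i = -lam ↔ i = i₀ by
          by_cases hi : i = i₀
          · simp [D, hi]
          · simp [D, Function.update_of_ne hi, hi, Ne.symm hne]))]
        exact Nat.card_unique
      rw [hcard, hc] at hev
      exact Nat.not_even_one hev
    · let φ : U →ₗ[F] F := (LinearMap.proj i₀).comp U.subtype
      obtain ⟨u, hu, hu0⟩ := (LinearMap.ker φ).exists_mem_ne_zero_of_ne_bot fun hb => by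
        have e1 := φ.finrank_range_add_finrank_ker
        have e2 := Submodule.finrank_le (LinearMap.range φ)
        rw [hb, finrank_bot, (h.finrank C hn).1] at e1
        simp at e2
        omega
      have hxu : mat x *ᵥ (u : Vn) = lam • (u : Vn) := by
        rw [hx]
        funext i
        rw [Matrix.mulVec_diagonal, Pi.smul_apply, smul_eq_mul]
        by_cases hi : i = i₀
        · subst hi; rw [show (u : Vn) i₀ = 0 from hu, mul_zero, mul_zero]
        · simp [D, Function.update_of_ne hi]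
      have hW' : (u : Vn) ∈ W := by
        have := W.smul_mem lam⁻¹ (hxu ▸ h1 _ u.2)
        rwa [smul_smul, inv_mul_cancel₀ hlam0, one_smul] at this
      exact hu0 (Subtype.ext (Submodule.disjoint_def.1 h.compl.disjoint _ u.2 hW'))

/-- A derangement with an irreducible block of odd dimension `j`. -/
theorem exists_block (C : Conj F q) {p : ℕ} [Fact p.Prime] [CharP F p] {d j : ℕ} (hn : n = 2 * d) (hd : 0 < d)
    (hj : Odd j) (hjn : j < n) {r : ℕ} [hr : Fact r.Prime] (hr2 : r ≠ 2) (hdvd : r ∣ q ^ j + 1)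
    (hrq : ¬ r ∣ q + 1) :
    ∃ x ∈ S₀, x ^ r = 1 ∧ (∀ z : F, mat x ≠ z • 1) ∧
      ∀ U W : Submodule F Vn, Pair q U W → ¬ Stable x U W := by
  classical
  have hj0 : 0 < j := hj.pos
  haveI : NeZero j := ⟨hj0.ne'⟩
  obtain ⟨k, hnk, hk⟩ : ∃ k, n = j + k ∧ 0 < k := ⟨n - j, by omega, by omega⟩
  let K := FiniteField.Extension F p j
  haveI : Fintype K := Fintype.ofFinite K
  have hKcard : Nat.card K = (q ^ j) ^ 2 := by
    rw [FiniteField.natCard_extension, Nat.card_eq_fintype_card, C.card, ← pow_mul, ← pow_mul, mul_comm]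
  obtain ⟨CK⟩ := nonempty_conj (F := K) (q := q ^ j) (by rw [← Nat.card_eq_fintype_card, hKcard])
  have hsq : ∀ (a : F) (t : ℕ), a ^ q ^ (2 * t + 1) = C.σ a := fun a t => by
    induction t with
    | zero => rw [C.pow]; simp
    | succ t ih => rw [show 2 * (t + 1) + 1 = 2 * t + 1 + 2 by ring, pow_add, pow_mul, ih, ← C.card, FiniteField.pow_card]
  have hres : ∀ a : F, CK.σ (algebraMap F K a) = algebraMap F K (C.σ a) := fun a => by
    obtain ⟨t, rfl⟩ := hj
    rw [CK.pow, ← map_pow, hsq]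
  have htr : ∀ v, C.σ (Algebra.trace F K v) = Algebra.trace F K (CK.σ v) := by
    intro v
    apply (algebraMap F K).injective
    rw [← hres, FiniteField.algebraMap_trace_eq_sum_pow, FiniteField.algebraMap_trace_eq_sum_pow, map_sum]
    exact Finset.sum_congr rfl fun i _ => map_pow CK.σ _ _
  let B : K →ₛₗ[C.σ] K →ₗ[F] F := LinearMap.mk₂'ₛₗ C.σ (RingHom.id F) (fun u v => Algebra.trace F K (CK.σ u * v))
    (fun a b c => by rw [map_add, add_mul, map_add])
    (fun a u v => by
      rw [Algebra.smul_def, map_mul CK.σ, hres, mul_assoc, ← Algebra.smul_def, map_smul])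
    (fun a b c => by rw [mul_add, map_add])
    (fun a u v => by rw [mul_smul_comm, map_smul]; rfl)
  have hS : B.IsSymm := ⟨fun u v => by
    show C.σ (Algebra.trace F K (CK.σ u * v)) = Algebra.trace F K (CK.σ v * u)
    rw [htr, map_mul CK.σ, CK.invol, mul_comm]⟩
  have htr0 : ∀ a : K, (∀ b, Algebra.trace F K (a * b) = 0) → a = 0 := fun a h =>
    (traceForm_nondegenerate F K).1 a fun b => by rw [Algebra.traceForm_apply]; exact h b
  have hB : B.Nondegenerate := by
    refine ⟨fun x hx => ?_, fun y hy => ?_⟩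
    · have := htr0 (CK.σ x) fun b => hx b
      exact (map_eq_zero_iff _ CK.σ.injective).1 this
    · refine htr0 y fun b => ?_
      have : Algebra.trace F K (CK.σ (CK.σ b) * y) = 0 := hy (CK.σ b)
      rwa [CK.invol, mul_comm] at this
  have hfin : Module.finrank F K = j := FiniteField.finrank_extension F p j
  obtain ⟨b₀, hb₀⟩ := Cfsg.Agent.S0755.result C.σ C.ne_id C.invol B hS hB
  let b := b₀.reindex (finCongr hfin)
  have hb : ∀ s t, B (b s) (b t) = if s = t then 1 else 0 := fun s t => by simp [b, hb₀]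
  have hBcoord : ∀ v w : K, B w v = ∑ i, b.equivFun v i * C.σ (b.equivFun w i) := by
    intro v w
    conv_lhs => rw [← b.sum_equivFun w, ← b.sum_equivFun v]
    simp only [map_sum, LinearMap.coe_sum, Finset.sum_apply, LinearMap.map_smulₛₗ, LinearMap.smul_apply, map_smul, smul_eq_mul, hb, mul_ite, mul_one, mul_zero]
    simp
  obtain ⟨u, hu⟩ := exists_prime_orderOf_dvd_card' (G := Kˣ) r (by
    rw [Nat.card_units, hKcard]
    exact hdvd.trans ⟨q ^ j - 1, by rw [← Nat.sq_sub_sq, one_pow]⟩)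
  set ζ := (u : K) with hζ
  have hζr : ζ ^ r = 1 := by rw [hζ, ← Units.val_pow_eq_pow_val, ← hu, pow_orderOf_eq_one, Units.val_one]
  have hζn : CK.σ ζ * ζ = 1 := by
    rw [CK.pow, ← pow_succ, hζ, ← Units.val_pow_eq_pow_val, orderOf_dvd_iff_pow_eq_one.1 (hu ▸ hdvd), Units.val_one]
  have hrq' : ¬ r ∣ q - 1 := fun h => by
    have h1 : r ∣ q ^ j - 1 := h.trans (by simpa using Nat.sub_dvd_pow_sub_pow q 1 j)
    have h2 : r ∣ (q ^ j + 1) - (q ^ j - 1) := Nat.dvd_sub hdvd h1
    rw [show (q ^ j + 1) - (q ^ j - 1) = 2 by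
      have := Nat.one_le_pow j q (by have := C.two_le; omega); omega] at h2
    exact hr2 ((Nat.prime_dvd_prime_iff_eq hr.out Nat.prime_two).1 h2)
  have hroot : ∀ a : F, a ^ r = 1 → a = 1 := fun a ha => by
    have ha0 : a ≠ 0 := fun h => by simp [h, hr.out.ne_zero] at ha
    rcases (Nat.dvd_prime hr.out).1 (orderOf_dvd_of_pow_eq_one ha) with h | h
    · exact orderOf_eq_one_iff.1 h
    · have h1 := orderOf_dvd_of_pow_eq_one (FiniteField.pow_card_sub_one_eq_one a ha0)
      rw [h, C.card, show q ^ 2 - 1 = (q + 1) * (q - 1) by rw [← Nat.sq_sub_sq, one_pow]] at h1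
      exact absurd h1 (fun h1 => (hr.out.dvd_mul.1 h1).elim hrq hrq')
  let A := Algebra.leftMulMatrix b ζ
  have hAv : ∀ a, A *ᵥ a = b.equivFun (ζ * b.equivFun.symm a) := fun a => by
    have := Algebra.leftMulMatrix_mulVec_repr b ζ (b.equivFun.symm a)
    rw [show (b.repr (b.equivFun.symm a) : Fin j → F) = a from b.equivFun.apply_symm_apply a] at this
    exact this
  have hAform : ∀ a a', ∑ i, (A *ᵥ a) i * C.σ ((A *ᵥ a') i) = ∑ i, a i * C.σ (a' i) := by
    intro a a'
    rw [hAv, hAv, ← hBcoord]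
    conv_rhs => rw [← b.equivFun.apply_symm_apply a, ← b.equivFun.apply_symm_apply a', ← hBcoord]
    show Algebra.trace F K _ = Algebra.trace F K _
    rw [map_mul CK.σ]
    congr 1
    linear_combination (CK.σ (b.equivFun.symm a') * b.equivFun.symm a) * hζn
  have hAdet : A.det = 1 := hroot _ (by rw [← Matrix.det_pow, ← map_pow, hζr, map_one, Matrix.det_one])
  have hA1 : ∀ a, A *ᵥ a = a → a = 0 := fun a ha => by
    rw [hAv] at ha
    have h := congrArg b.equivFun.symm ha
    rw [LinearEquiv.symm_apply_apply] at h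
    by_contra h0
    have hne : b.equivFun.symm a ≠ 0 := fun h1 => h0 (b.equivFun.symm.map_eq_zero_iff.1 h1)
    have h1 : u = 1 := Units.ext ((mul_eq_right₀ hne).1 h)
    rw [h1, orderOf_one] at hu
    exact hr.out.ne_one hu.symm
  let e : Fin j ⊕ Fin k ≃ Fin n := finSumFinEquiv.trans (finCongr hnk.symm)
  let R := Matrix.reindexAlgEquiv F F e
  have hdetM : (R (Matrix.fromBlocks A 0 0 1)).det = 1 := by
    simp [R, Matrix.det_fromBlocks_zero₂₁, hAdet]
  let x : GL (Fin n) F := GeneralLinearGroup.mkOfDetNeZero _ (hdetM ▸ one_ne_zero : (R (Matrix.fromBlocks A 0 0 1)).det ≠ 0)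
  have hxv : ∀ (v : Vn), mat x *ᵥ v = Sum.elim (A *ᵥ (v ∘ e ∘ Sum.inl)) (v ∘ e ∘ Sum.inr) ∘ e.symm := fun v => by
    show R (Matrix.fromBlocks A 0 0 1) *ᵥ v = _
    simp [R, Matrix.submatrix_mulVec_equiv, Matrix.fromBlocks_mulVec, Function.comp_assoc]
  have hsum : ∀ v w : Vn, H v w = (∑ i, v (e (Sum.inl i)) * C.σ (w (e (Sum.inl i)))) + ∑ i, v (e (Sum.inr i)) * C.σ (w (e (Sum.inr i))) := fun v w => by
    rw [form_eq C, ← e.sum_comp, Fintype.sum_sum_type]
  have hxS : x ∈ S₀ := Subgroup.mem_inf.2 ⟨fun v w => by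
    show H (mat x *ᵥ v) (mat x *ᵥ w) = H v w
    rw [hxv, hxv, hsum, hsum v w]
    simp only [Function.comp_apply, Equiv.symm_apply_apply, Sum.elim_inl, Sum.elim_inr]
    rw [hAform]
    rfl, Units.ext hdetM⟩
  have hxr : x ^ r = 1 := Units.ext (by
    rw [Units.val_pow_eq_pow_val, Units.val_one]
    show R (Matrix.fromBlocks A 0 0 1) ^ r = 1
    have hp : ∀ s : ℕ, Matrix.fromBlocks A 0 0 (1 : Matrix (Fin k) (Fin k) F) ^ s = Matrix.fromBlocks (A ^ s) 0 0 1 := by
      intro s
      induction s with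
      | zero => simp
      | succ s ih => rw [pow_succ, ih, Matrix.fromBlocks_multiply]; simp [pow_succ]
    rw [← map_pow, hp, ← map_pow, hζr, map_one, Matrix.fromBlocks_one, map_one])
  have hfix : ∀ v, mat x *ᵥ v = v ↔ ∀ i, v (e (Sum.inl i)) = 0 := fun v => by
    rw [hxv]
    constructor
    · intro h i
      refine congrFun (hA1 (v ∘ e ∘ Sum.inl) (funext fun l => ?_)) i
      simpa using congrFun h (e (Sum.inl l))
    · intro h
      have h0 : v ∘ e ∘ Sum.inl = 0 := funext h
      rw [h0, Matrix.mulVec_zero]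
      funext l
      obtain ⟨s, rfl⟩ := e.surjective l
      rcases s with s | s
      · simp [h s]
      · simp
  refine ⟨x, hxS, hxr, fun z hz => ?_, fun U W h hst => ?_⟩
  · simp only at hfix hz
    have h1 := (hfix (Pi.single (e (Sum.inr ⟨0, hk⟩)) 1)).2 fun i => by simp
    have h2 := (hfix (Pi.single (e (Sum.inl ⟨0, hj0⟩)) 1)).1
    rw [hz, Matrix.smul_mulVec, Matrix.one_mulVec] at h1
    have hz1 : z = 1 := by simpa using congrFun h1 (e (Sum.inr ⟨0, hk⟩))
    have := h2 (by rw [hz, hz1, one_smul, Matrix.one_mulVec]) ⟨0, hj0⟩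
    simp at this
  · obtain ⟨s, hs⟩ := hr.out.odd_of_ne_two hr2
    obtain ⟨h1, h2⟩ := fixes_of_pow_odd C h (s := s) (by rw [(h.finrank C hn).1]; exact hd) (hs ▸ hxr) hst
    have hmem : ∀ v, v ∈ eigen x 1 ↔ ∀ i, v (e (Sum.inl i)) = 0 := fun v => by
      rw [mem_eigen, one_smul]; exact hfix v
    have hnd : ∀ v ∈ eigen x 1, (∀ w ∈ eigen x 1, H v w = 0) → v = 0 := fun v hv h0 => funext fun l => by
      obtain ⟨s', rfl⟩ := e.surjective l
      rcases s' with s' | s'
      · exact (hmem v).1 hv s'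
      · have := h0 (Pi.single (e (Sum.inr s')) 1) ((hmem _).2 fun i => by simp)
        rwa [form_single_right C] at this
    have hev := even_eigen C h h1 h2 1 _ (fun v => mem_eigen) hnd
    let L : eigen x 1 ≃ₗ[F] (Fin k → F) :=
      { toFun := fun v i => (v : Vn) (e (Sum.inr i))
        map_add' := fun a b => rfl
        map_smul' := fun a b => rfl
        invFun := fun f => ⟨Sum.elim 0 f ∘ e.symm, (hmem _).2 fun i => by simp⟩
        left_inv := fun v => Subtype.ext (funext fun l => by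
          obtain ⟨s', rfl⟩ := e.surjective l
          rcases s' with s' | s'
          · simp [(hmem _).1 v.2 s']
          · simp)
        right_inv := fun f => funext fun i => by simp }
    rw [L.finrank_eq, Module.finrank_fintype_fun_eq_card, Fintype.card_fin] at hev
    obtain ⟨a, ha⟩ := hj
    obtain ⟨c, hc⟩ := hev
    omega

/-- When `(q + 1)₂ ≤ n₂` every involution modulo scalars stabilizes a pair. -/
theorem exists_stable (C : Conj F q) (hodd : Odd q) {d : ℕ} (hn : n = 2 * d) (hd : 0 < d)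
    (hval : padicValNat 2 (q + 1) ≤ padicValNat 2 n) {x : GL (Fin n) F} (hx : x ∈ S₀)
    {z : F} (hz : mat (x ^ 2) = z • 1) :
    ∃ U W : Submodule F Vn, Pair q U W ∧ Stable x U W := by
  classical
  obtain ⟨hxU, hxdet⟩ := Subgroup.mem_inf.1 hx
  have hH : ∀ u v, H (mat x *ᵥ u) (mat x *ᵥ v) = H u v := GU_form ⟨x, hxU⟩
  have h2 : (2 : F) ≠ 0 := CfsgLib.UGeom.Invol.two_ne_zero' C hodd
  have hxx : ∀ v, mat x *ᵥ (mat x *ᵥ v) = z • v := fun v => by
    simp only at hz ⊢
    rw [Matrix.mulVec_mulVec, ← Units.val_mul, ← pow_two, hz, Matrix.smul_mulVec, Matrix.one_mulVec]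
  let i₀ : Fin n := ⟨0, by omega⟩
  have hzn : z * C.σ z = 1 := by
    have h : H (z • Pi.single i₀ 1) (z • Pi.single i₀ (1 : F)) = H (Pi.single i₀ 1) (Pi.single i₀ (1 : F)) := by
      rw [← hxx, hH, hH]
    rw [form_smul_left, form_smul_right C, form_single_right C, Pi.single_eq_same, mul_one] at h
    exact h
  have hz0 : z ≠ 0 := left_ne_zero_of_mul_eq_one hzn
  have hzq : z ^ (q + 1) = 1 := by rw [pow_succ', ← C.pow, hzn]
  obtain ⟨lam, hlam⟩ : IsSquare z := by
    obtain ⟨t, ht⟩ := hodd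
    rw [FiniteField.isSquare_iff (fun hc => h2 (by
      have := ringChar.eq_iff.1 hc
      exact CharTwo.two_eq_zero)) hz0, C.card]
    have : q ^ 2 / 2 = (q + 1) * t := by
      rw [ht, show (2 * t + 1) ^ 2 = 2 * ((2 * t + 1 + 1) * t) + 1 by ring, Nat.mul_add_div two_pos]
      norm_num
    rw [this, pow_mul, hzq, one_pow]
  have hlam0 : lam ≠ 0 := fun h => hz0 (by rw [hlam, h, mul_zero])
  have hne : lam ≠ -lam := fun h => hlam0 (by
    have : 2 * lam = 0 := by linear_combination h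
    exact (mul_eq_zero.1 this).resolve_left h2)
  have hsup : eigen x lam ⊔ eigen x (-lam) = ⊤ := by
    refine eq_top_iff.2 fun v _ => Submodule.mem_sup.2
      ⟨(2 * lam)⁻¹ • (mat x *ᵥ v + lam • v), ?_, -((2 * lam)⁻¹ • (mat x *ᵥ v - lam • v)), ?_, ?_⟩
    · rw [mem_eigen]
      simp only at hxx ⊢
      rw [Matrix.mulVec_smul, Matrix.mulVec_add, Matrix.mulVec_smul, hxx, hlam]
      module
    · rw [mem_eigen]
      simp only at hxx ⊢
      rw [Matrix.mulVec_neg, Matrix.mulVec_smul, Matrix.mulVec_sub, Matrix.mulVec_smul, hxx, hlam]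
      module
    · simp only
      rw [← sub_eq_add_neg, ← smul_sub, add_sub_sub_cancel, ← two_smul F (lam • v), smul_smul, smul_smul,
        show (2 * lam)⁻¹ * 2 * lam = 1 by rw [mul_assoc]; exact inv_mul_cancel₀ (mul_ne_zero h2 hlam0), one_smul]
  have hdis : Disjoint (eigen x lam) (eigen x (-lam)) := by
    refine Submodule.disjoint_def.2 fun v h1 h1' => ?_
    rw [mem_eigen] at h1 h1'
    by_contra hv
    exact hne (smul_left_injective F hv (h1.symm.trans h1'))
  have horth : ∀ α β : F, ∀ u ∈ eigen x α, ∀ v ∈ eigen x β, α * C.σ β ≠ 1 → H u v = 0 := fun α β u hu v hv hab => by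
    have h := hH u v
    rw [mem_eigen.1 hu, mem_eigen.1 hv, form_smul_left, form_smul_right C, ← mul_assoc] at h
    by_contra h0
    exact hab (mul_right_cancel₀ h0 (h.trans (one_mul _).symm))
  have hsq : (lam * C.σ lam) * (lam * C.σ lam) = 1 := by
    rw [← hzn, hlam, map_mul]; ring
  rcases mul_self_eq_one_iff.1 hsq with hN | hN
  · -- non-degenerate eigenspaces
    have hortho : ∀ u ∈ eigen x lam, ∀ v ∈ eigen x (-lam), H u v = 0 := fun u hu v hv =>
      horth lam (-lam) u hu v hv (by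
        rw [map_neg, mul_neg, hN]
        intro h
        exact h2 (by linear_combination -h))
    have hsplit : ∀ v, ∃ a ∈ eigen x lam, ∃ b ∈ eigen x (-lam), a + b = v := fun v =>
      Submodule.mem_sup.1 (hsup ▸ Submodule.mem_top)
    have hnd1 : ∀ u ∈ eigen x lam, (∀ v ∈ eigen x lam, H u v = 0) → u = 0 := fun u hu h0 => ext_form C fun v => by
      obtain ⟨a, ha, b, hb, rfl⟩ := hsplit v
      rw [form_zero_left, form_add_right C, h0 a ha, hortho u hu b hb, add_zero]
    have hnd2 : ∀ u ∈ eigen x (-lam), (∀ v ∈ eigen x (-lam), H u v = 0) → u = 0 := fun u hu h0 => ext_form C fun v => by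
      obtain ⟨a, ha, b, hb, rfl⟩ := hsplit v
      rw [form_zero_left, form_add_right C, h0 b hb, ← form_conj C a u, hortho a ha u hu, map_zero, add_zero]
    -- the determinant
    set E1 := eigen x lam with hE1
    set E2 := eigen x (-lam) with hE2
    have hc : IsCompl E1 E2 := ⟨hdis, codisjoint_iff.2 hsup⟩
    let eP := Submodule.prodEquivOfIsCompl E1 E2 hc
    have hT : Matrix.toLin' (mat x) = (eP : (E1 × E2) →ₗ[F] Vn) ∘ₗ
        ((lam • LinearMap.id).prodMap ((-lam) • LinearMap.id)) ∘ₗ (eP.symm : Vn →ₗ[F] (E1 × E2)) := by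
      refine LinearMap.ext fun v => ?_
      obtain ⟨⟨a, b⟩, rfl⟩ := eP.surjective v
      simp only [LinearMap.comp_apply, LinearEquiv.coe_coe, LinearEquiv.symm_apply_apply]
      simp only [LinearMap.prodMap_apply,
        Submodule.coe_prodEquivOfIsCompl', Matrix.toLin'_apply, Matrix.mulVec_add, LinearMap.smul_apply,
        LinearMap.id_apply, Submodule.coe_smul, eP]
      rw [mem_eigen.1 a.2, mem_eigen.1 b.2]
    have hdet : lam ^ Module.finrank F E1 * (-lam) ^ Module.finrank F E2 = 1 := by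
      have h : LinearMap.det (Matrix.toLin' (mat x)) = 1 := by
        rw [LinearMap.det_toLin']
        exact congrArg Units.val hxdet
      rwa [hT, LinearMap.det_conj, LinearMap.det_prodMap, LinearMap.det_smul, LinearMap.det_smul, LinearMap.det_id,
        mul_one, LinearMap.det_id, mul_one] at h
    have hdim : Module.finrank F E1 + Module.finrank F E2 = n := by
      rw [Submodule.finrank_add_eq_of_isCompl hc, Module.finrank_fintype_fun_eq_card, Fintype.card_fin]
    have hlq : lam ^ (q + 1) = 1 := by rw [pow_succ', ← C.pow]; exact hN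
    have hev2 : Even (Module.finrank F E2) := by
      by_contra hb
      rw [Nat.not_even_iff_odd] at hb
      rw [hb.neg_pow, mul_neg, ← pow_add, hdim] at hdet
      have hn1 : lam ^ n = -1 := by linear_combination -hdet
      obtain ⟨o, ho⟩ : 2 ^ padicValNat 2 (q + 1) ∣ q + 1 := pow_padicValNat_dvd
      have ho2 : Odd o := by
        rw [Nat.odd_iff]
        by_contra h
        obtain ⟨k, hk⟩ : 2 ∣ o := by omega
        exact pow_succ_padicValNat_not_dvd (p := 2) (n := q + 1) (by omega)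
          ⟨k, by rw [pow_succ, mul_assoc, ← hk]; exact ho⟩
      obtain ⟨m, hm⟩ : 2 ^ padicValNat 2 (q + 1) ∣ n := (pow_dvd_pow 2 hval).trans pow_padicValNat_dvd
      have h1 : lam ^ (n * o) = 1 := by
        rw [hm, mul_right_comm, ← ho, pow_mul, hlq, one_pow]
      rw [pow_mul, hn1, ho2.neg_one_pow] at h1
      exact h2 (by linear_combination -h1)
    have hev1 : Even (Module.finrank F E1) := by
      obtain ⟨k, hk⟩ := hev2
      exact ⟨d - k, by omega⟩
    obtain ⟨U1, W1, hs1, hU1, hW1, hU1d, hW1d⟩ := exists_halves C E1 hnd1 hev1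
    obtain ⟨U2, W2, hs2, hU2, hW2, hU2d, hW2d⟩ := exists_halves C E2 hnd2 hev2
    have hts : ∀ A B : Submodule F Vn, A ≤ E1 → B ≤ E2 → (∀ u ∈ A, ∀ v ∈ A, H u v = 0) →
        (∀ u ∈ B, ∀ v ∈ B, H u v = 0) → ∀ u ∈ A ⊔ B, ∀ v ∈ A ⊔ B, H u v = 0 := by
      intro A B hA hB hAA hBB u hu v hv
      obtain ⟨a, ha, b, hb, rfl⟩ := Submodule.mem_sup.1 hu
      obtain ⟨a', ha', b', hb', rfl⟩ := Submodule.mem_sup.1 hv
      rw [form_add_left, form_add_right C, form_add_right C, hAA a ha a' ha', hBB b hb b' hb',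
        hortho a (hA ha) b' (hB hb'), ← form_conj C a' b, hortho a' (hA ha') b (hB hb), map_zero]
      simp
    have hU1E : U1 ≤ E1 := hs1 ▸ le_sup_left
    have hW1E : W1 ≤ E1 := hs1 ▸ le_sup_right
    have hU2E : U2 ≤ E2 := hs2 ▸ le_sup_left
    have hW2E : W2 ≤ E2 := hs2 ▸ le_sup_right
    have hcod : (U1 ⊔ U2) ⊔ (W1 ⊔ W2) = ⊤ := by rw [sup_sup_sup_comm, hs1, hs2, hsup]
    have hinf : (U1 ⊔ U2) ⊓ (W1 ⊔ W2) = ⊥ := by
      refine Submodule.finrank_eq_zero.1 ?_
      have e1 := Submodule.finrank_sup_add_finrank_inf_eq (U1 ⊔ U2) (W1 ⊔ W2)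
      rw [hcod, finrank_top, Module.finrank_fintype_fun_eq_card, Fintype.card_fin] at e1
      have e2 := Submodule.finrank_add_le_finrank_add_finrank U1 U2
      have e3 := Submodule.finrank_add_le_finrank_add_finrank W1 W2
      omega
    refine ⟨U1 ⊔ U2, W1 ⊔ W2, ⟨⟨disjoint_iff.2 hinf, codisjoint_iff.2 hcod⟩,
      hts _ _ hU1E hU2E hU1 hU2, hts _ _ hW1E hW2E hW1 hW2⟩, Or.inl ⟨fun u hu => ?_, fun u hu => ?_⟩⟩
    all_goals
      obtain ⟨a, ha, b, hb, rfl⟩ := Submodule.mem_sup.1 hu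
      simp only [Matrix.mulVec_add]
    · rw [mem_eigen.1 (hU1E ha), mem_eigen.1 (hU2E hb)]
      exact add_mem (Submodule.mem_sup_left (U1.smul_mem _ ha)) (Submodule.mem_sup_right (U2.smul_mem _ hb))
    · rw [mem_eigen.1 (hW1E ha), mem_eigen.1 (hW2E hb)]
      exact add_mem (Submodule.mem_sup_left (W1.smul_mem _ ha)) (Submodule.mem_sup_right (W2.smul_mem _ hb))
  · -- totally singular eigenspaces
    have hts : ∀ α, (α = lam ∨ α = -lam) → ∀ u ∈ eigen x α, ∀ v ∈ eigen x α, H u v = 0 := by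
      intro α hα u hu v hv
      refine horth α α u hu v hv ?_
      rcases hα with rfl | rfl
      · rw [hN]; intro h; exact h2 (by linear_combination -h)
      · rw [map_neg, neg_mul_neg, hN]; intro h; exact h2 (by linear_combination -h)
    refine ⟨eigen x lam, eigen x (-lam), ⟨⟨hdis, codisjoint_iff.2 hsup⟩, hts _ (Or.inl rfl), hts _ (Or.inr rfl)⟩,
      Or.inl ⟨fun u hu => ?_, fun u hu => ?_⟩⟩
    · rw [mem_eigen.1 hu]; exact Submodule.smul_mem _ _ hu
    · rw [mem_eigen.1 hu]; exact Submodule.smul_mem _ _ hu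

end CfsgLib.UPairs
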