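import Mathlib
import Cfsg.Agent.UGeom.Count
import Cfsg.Agent.S0755
import Cfsg.Prelude.Def_GeometricClasses

set_option autoImplicit false

/-! Pairs of complementary totally singular subspaces of a unitary space. -/

namespace CfsgLib.UPairs

open Matrix CfsgLib.UGeom

variable {F : Type*} [Field F] {q n : ℕ}

local notation "H" => Cfsg.hermForm n F q
local notation "Vn" => (Fin n → F)
local notation "mat" => (fun (g : GL (Fin n) F) => (g : Matrix (Fin n) (Fin n) F))

/-- Two complementary totally singular subspaces. -/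
structure Pair (q : ℕ) (U W : Submodule F (Fin n → F)) : Prop where
  compl : IsCompl U W
  left : ∀ u ∈ U, ∀ v ∈ U, Cfsg.hermForm n F q u v = 0
  right : ∀ u ∈ W, ∀ v ∈ W, Cfsg.hermForm n F q u v = 0

theorem Pair.symm {U W : Submodule F Vn} (h : Pair q U W) : Pair q W U :=
  ⟨h.compl.symm, h.right, h.left⟩

/-- `x` fixes the two members or interchanges them. -/
def Stable (x : GL (Fin n) F) (U W : Submodule F Vn) : Prop :=
  ((∀ u ∈ U, mat x *ᵥ u ∈ U) ∧ ∀ w ∈ W, mat x *ᵥ w ∈ W) ∨
    ((∀ u ∈ U, mat x *ᵥ u ∈ W) ∧ ∀ w ∈ W, mat x *ᵥ w ∈ U)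

theorem finrank_map_gl (x : GL (Fin n) F) (U : Submodule F Vn) :
    Module.finrank F (U.map (Matrix.toLin' (mat x))) = Module.finrank F U :=
  (Submodule.equivMapOfInjective _ (fun a b h => by
    have := congrArg (mat x⁻¹ *ᵥ ·) h
    simpa [Matrix.mulVec_mulVec, ← Units.val_mul] using this) U).finrank_eq.symm

variable [Fintype F]

theorem finrank_le_of_pairing (C : Conj F q) {U W : Submodule F Vn}
    (h : ∀ u ∈ U, (∀ w ∈ W, H u w = 0) → u = 0) :
    Module.finrank F U ≤ Module.finrank F W := by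
  let b := Module.finBasis F W
  let L : U →ₗ[F] (Fin (Module.finrank F W) → F) :=
    { toFun := fun u i => H (u : Vn) (b i : Vn)
      map_add' := fun u v => funext fun i => form_add_left _ _ _
      map_smul' := fun c u => funext fun i => form_smul_left _ _ _ }
  have hinj : Function.Injective L := (injective_iff_map_eq_zero L).2 fun u hu => Subtype.ext <| h u u.2 fun w hw => by
    have hw' : (⟨w, hw⟩ : W) = ∑ i, b.repr ⟨w, hw⟩ i • b i := (b.sum_repr _).symm
    have : w = ∑ i, b.repr ⟨w, hw⟩ i • (b i : Vn) := by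
      have e := congrArg Subtype.val hw'
      rw [Submodule.coe_sum] at e
      exact e
    rw [this, form_eq C]
    simp only [Finset.sum_apply, Pi.smul_apply, smul_eq_mul, map_sum, map_mul, Finset.mul_sum]
    rw [Finset.sum_comm]
    refine Finset.sum_eq_zero fun i _ => ?_
    calc ∑ j, (u : Vn) j * (C.σ (b.repr ⟨w, hw⟩ i) * C.σ ((b i : Vn) j))
        = C.σ (b.repr ⟨w, hw⟩ i) * H (u : Vn) (b i : Vn) := by
          rw [form_eq C, Finset.mul_sum]; exact Finset.sum_congr rfl fun j _ => by ring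
      _ = 0 := by rw [show H (u : Vn) (b i : Vn) = 0 from congrFun hu i, mul_zero]
  simpa using LinearMap.finrank_le_finrank_of_injective hinj

theorem Pair.pairing (C : Conj F q) {U W : Submodule F Vn} (h : Pair q U W) {u : Vn} (hu : u ∈ U)
    (h0 : ∀ w ∈ W, H u w = 0) : u = 0 := by
  refine ext_form C fun x => ?_
  rw [form_zero_left]
  obtain ⟨a, ha, b, hb, rfl⟩ := Submodule.mem_sup.1 (show x ∈ U ⊔ W by rw [h.compl.sup_eq_top]; trivial)
  rw [form_add_right C, h.left u hu a ha, h0 b hb, add_zero]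

theorem Pair.finrank (C : Conj F q) {U W : Submodule F Vn} (h : Pair q U W) {d : ℕ} (hn : n = 2 * d) :
    Module.finrank F U = d ∧ Module.finrank F W = d := by
  have h1 := finrank_le_of_pairing C fun u hu h0 => h.pairing C hu h0
  have h2 := finrank_le_of_pairing C fun u hu h0 => h.symm.pairing C hu h0
  have h3 := Submodule.finrank_add_eq_of_isCompl h.compl
  rw [Module.finrank_fintype_fun_eq_card, Fintype.card_fin] at h3
  omega

theorem pair_of_decomposition (C : Conj F q) {D : Fin 2 → Submodule F Vn} {m : ℕ}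
    (hD : Cfsg.Geo.IsMDecomposition m D) (hs : ∀ i, Cfsg.Geo.IsTotallySingularFor H (D i)) :
    Pair q (D 0) (D 1) := by
  refine ⟨⟨hD.indep.pairwiseDisjoint (show (0 : Fin 2) ≠ 1 by simp), ?_⟩, hs 0, hs 1⟩
  rw [codisjoint_iff, ← top_le_iff, ← hD.iSup_eq_top]
  exact iSup_le fun i => by fin_cases i <;> simp

theorem mem_stabilizer_iff {D : Fin 2 → Submodule F Vn} {x : GL (Fin n) F} {m : ℕ}
    (hD : Cfsg.Geo.IsMDecomposition m D) :
    x ∈ Cfsg.Geo.decompositionStabilizer D ↔ Stable x (D 0) (D 1) := by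
  constructor
  · rintro ⟨σ, hσ⟩
    have hmem : ∀ i, ∀ u ∈ D i, mat x *ᵥ u ∈ D (σ i) := fun i u hu =>
      (hσ i).le (Submodule.mem_map_of_mem (f := Matrix.toLin' (mat x)) hu)
    rcases Fin.exists_fin_two.1 ⟨σ 0, (rfl : σ 0 = σ 0)⟩ with h | h
    · have h1 : σ 1 = 1 := by
        rcases Fin.exists_fin_two.1 ⟨σ 1, (rfl : σ 1 = σ 1)⟩ with h' | h'
        · exact absurd (σ.injective (h'.trans h.symm)) (by simp)
        · exact h'
      exact Or.inl ⟨fun u hu => h ▸ hmem 0 u hu, fun w hw => h1 ▸ hmem 1 w hw⟩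
    · have h1 : σ 1 = 0 := by
        rcases Fin.exists_fin_two.1 ⟨σ 1, (rfl : σ 1 = σ 1)⟩ with h' | h'
        · exact h'
        · exact absurd (σ.injective (h'.trans h.symm)) (by simp)
      exact Or.inr ⟨fun u hu => h ▸ hmem 0 u hu, fun w hw => h1 ▸ hmem 1 w hw⟩
  · intro h
    have key : ∀ i j, (∀ u ∈ D i, mat x *ᵥ u ∈ D j) → (D i).map (Matrix.toLin' (mat x)) = D j := fun i j hij => by
      refine Submodule.eq_of_le_of_finrank_eq ?_ ((finrank_map_gl x _).trans ((hD.finrank_eq i).trans (hD.finrank_eq j).symm))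
      rintro _ ⟨u, hu, rfl⟩
      simpa using hij u hu
    rcases h with ⟨h0, h1⟩ | ⟨h0, h1⟩
    · refine ⟨1, fun i => ?_⟩
      fin_cases i
      · exact key 0 0 h0
      · exact key 1 1 h1
    · refine ⟨Equiv.swap 0 1, fun i => ?_⟩
      fin_cases i
      · simpa using key 0 1 h0
      · simpa using key 1 0 h1

/-- The standard hyperbolic hermitian form. -/
def hyp (C : Conj F q) {d : ℕ} (a b : Fin d ⊕ Fin d → F) : F :=
  ∑ i, (a (Sum.inl i) * C.σ (b (Sum.inr i)) + a (Sum.inr i) * C.σ (b (Sum.inl i)))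

/-- Coordinates adapted to a pair. -/
theorem Pair.exists_frame (C : Conj F q) {U W : Submodule F Vn} (h : Pair q U W) {d : ℕ} (hn : n = 2 * d) :
    ∃ L : Vn ≃ₗ[F] (Fin d ⊕ Fin d → F), (∀ u v, H u v = hyp C (L u) (L v)) ∧
      (∀ v, v ∈ U ↔ ∀ i, L v (Sum.inr i) = 0) ∧ (∀ v, v ∈ W ↔ ∀ i, L v (Sum.inl i) = 0) := by
  classical
  obtain ⟨hU, -⟩ := h.finrank C hn
  let b := (Module.finBasis F U).reindex (finCongr hU)
  let π := U.linearProjOfIsCompl W h.compl
  let L₀ : Vn →ₗ[F] (Fin d ⊕ Fin d → F) :=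
    { toFun := fun v => Sum.elim (b.equivFun (π v)) (fun i => H v (b i : Vn))
      map_add' := fun u v => by
        funext i; rcases i with i | i
        · simp
        · simp [form_add_left]
      map_smul' := fun c v => by
        funext i; rcases i with i | i
        · simp
        · simp [form_smul_left] }
  have hexp : ∀ u : U, (u : Vn) = ∑ i, b.equivFun u i • (b i : Vn) := fun u => by
    have e := congrArg Subtype.val (b.sum_equivFun u).symm
    rw [Submodule.coe_sum] at e
    exact e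
  have hUW : ∀ v, ∃ w ∈ W, v = (π v : Vn) + w := fun v => by
    obtain ⟨a, ha, w, hw, rfl⟩ := Submodule.mem_sup.1 (show v ∈ U ⊔ W by rw [h.compl.sup_eq_top]; trivial)
    refine ⟨w, hw, ?_⟩
    have h1 : π a = ⟨a, ha⟩ := Submodule.linearProjOfIsCompl_apply_left h.compl ⟨a, ha⟩
    have h2 : π w = 0 := Submodule.linearProjOfIsCompl_apply_right' h.compl hw
    rw [map_add, h1, h2, add_zero]
  have hHb : ∀ (i : Fin d) (u : U), H (u : Vn) (b i : Vn) = 0 := fun i u => h.left _ u.2 _ (b i).2
  have hinj : Function.Injective L₀ := (injective_iff_map_eq_zero L₀).2 fun v hv => by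
    have h0 : π v = 0 := b.equivFun.map_eq_zero_iff.1 (funext fun i => congrFun hv (Sum.inl i))
    obtain ⟨w, hw, hvw⟩ := hUW v
    rw [h0, Submodule.coe_zero, zero_add] at hvw
    subst hvw
    refine h.symm.pairing C hw fun u hu => ?_
    have hb : ∀ i, H v (b i : Vn) = 0 := fun i => congrFun hv (Sum.inr i)
    rw [show u = ((⟨u, hu⟩ : U) : Vn) from rfl, hexp, form_eq C]
    simp only [Finset.sum_apply, Pi.smul_apply, smul_eq_mul, map_sum, map_mul, Finset.mul_sum]
    rw [Finset.sum_comm]
    refine Finset.sum_eq_zero fun i _ => ?_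
    calc ∑ j, v j * (C.σ (b.equivFun ⟨u, hu⟩ i) * C.σ ((b i : Vn) j))
        = C.σ (b.equivFun ⟨u, hu⟩ i) * H v (b i : Vn) := by
          rw [form_eq C, Finset.mul_sum]; exact Finset.sum_congr rfl fun j _ => by ring
      _ = 0 := by rw [hb i, mul_zero]
  let L := LinearMap.linearEquivOfInjective L₀ hinj (by simp [hn, two_mul])
  have hLl : ∀ v i, L v (Sum.inl i) = b.equivFun (π v) i := fun v i => rfl
  have hLr : ∀ v i, L v (Sum.inr i) = H v (b i : Vn) := fun v i => rfl
  have hsum : ∀ (u : U) (w : Vn), H (u : Vn) w = ∑ i, b.equivFun u i * H (b i : Vn) w := fun u w => by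
    rw [hexp u]
    simp [Cfsg.hermForm, Finset.sum_mul, Finset.mul_sum, mul_assoc, ← hexp u]
    rw [Finset.sum_comm]
  refine ⟨L, fun u v => ?_, fun v => ⟨fun hv i => ?_, fun hv => ?_⟩, fun v => ⟨fun hv i => ?_, fun hv => ?_⟩⟩
  · obtain ⟨u', hu', hu⟩ := hUW u
    obtain ⟨v', hv', hv⟩ := hUW v
    have e1 : ∀ i, H (b i : Vn) v' = H (b i : Vn) v := fun i => by
      rw [hv, form_add_right C, h.left _ (b i).2 _ (π v).2, zero_add]
    have e2 : ∀ i, H (b i : Vn) u' = H (b i : Vn) u := fun i => by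
      rw [hu, form_add_right C, h.left _ (b i).2 _ (π u).2, zero_add]
    conv_lhs => rw [hu, hv, form_add_left, form_add_right C, form_add_right C,
      h.left _ (π u).2 _ (π v).2, h.right _ hu' _ hv', zero_add, add_zero, ← form_conj C (π v : Vn) u',
      hsum, hsum (π v) u', map_sum, ← Finset.sum_add_distrib]
    refine Finset.sum_congr rfl fun i _ => ?_
    rw [hLl, hLr, hLr, hLl, map_mul, e1, e2, ← form_conj C v (b i : Vn), ← form_conj C u (b i : Vn), C.invol]
    ring
  · rw [hLr]; exact hHb i ⟨v, hv⟩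
  · obtain ⟨w, hw, hvw⟩ := hUW v
    have hw0 : w = 0 := by
      refine h.symm.pairing C hw fun u hu => ?_
      rw [← form_conj C u w, show u = ((⟨u, hu⟩ : U) : Vn) from rfl, hsum, map_sum]
      refine Finset.sum_eq_zero fun i _ => ?_
      have h1 := hv i
      rw [hLr, hvw, form_add_left, hHb, zero_add] at h1
      rw [map_mul, ← form_conj C w (b i : Vn), C.invol, h1, mul_zero]
    rw [hvw, hw0, add_zero]; exact (π v).2
  · rw [hLl, show π v = 0 from Submodule.linearProjOfIsCompl_apply_right' h.compl hv, map_zero]; rfl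
  · obtain ⟨w, hw, hvw⟩ := hUW v
    have : π v = 0 := b.equivFun.map_eq_zero_iff.1 (funext fun i => (hLl v i).symm.trans (hv i))
    rw [hvw, this, Submodule.coe_zero, zero_add]
    exact hw

/-- An even-dimensional non-degenerate subspace is split by two totally singular halves. -/
theorem exists_halves (C : Conj F q) (E : Submodule F Vn)
    (hE : ∀ u ∈ E, (∀ v ∈ E, H u v = 0) → u = 0) (he : Even (Module.finrank F E)) :
    ∃ U W : Submodule F Vn, U ⊔ W = E ∧ (∀ u ∈ U, ∀ v ∈ U, H u v = 0) ∧ (∀ u ∈ W, ∀ v ∈ W, H u v = 0) ∧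
      2 * Module.finrank F U ≤ Module.finrank F E ∧ 2 * Module.finrank F W ≤ Module.finrank F E := by
  classical
  obtain ⟨k, hk⟩ := he
  let B : E →ₛₗ[C.σ] E →ₗ[F] F := LinearMap.mk₂'ₛₗ C.σ (RingHom.id F) (fun u v => H (v : Vn) (u : Vn))
    (fun x y z => form_add_right C _ _ _) (fun c x z => form_smul_right C _ _ _)
    (fun x y z => form_add_left _ _ _) (fun c x z => form_smul_left _ _ _)
  have hS : B.IsSymm := ⟨fun x y => form_conj C _ _⟩
  have hB : B.Nondegenerate := by
    refine ⟨fun x hx => Subtype.ext (hE x x.2 fun v hv => ?_), fun y hy => Subtype.ext (hE y y.2 fun v hv => hy ⟨v, hv⟩)⟩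
    have h := hx ⟨v, hv⟩
    change H v (x : Vn) = 0 at h
    rw [← form_conj C, h, map_zero]
  obtain ⟨b₀, hb₀⟩ := Cfsg.Agent.S0755.result C.σ C.ne_id C.invol B hS hB
  let b := b₀.reindex ((finCongr hk).trans finSumFinEquiv.symm)
  have hb : ∀ i j, H (b i : Vn) (b j : Vn) = if i = j then 1 else 0 := fun i j => by
    show B (b j) (b i) = _
    simp only [b, Module.Basis.reindex_apply, hb₀, EmbeddingLike.apply_eq_iff_eq]
    by_cases h : i = j
    · subst h; simp
    · simp [h, Ne.symm h]
  obtain ⟨μ, -, hμ⟩ := CfsgLib.Hermitian.exists_norm C.ne_id C.invol (neg_ne_zero.2 (one_ne_zero (α := F)))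
    (by rw [map_neg, map_one])
  obtain ⟨ν, hν1, hν⟩ := exists_norm_one_ne C
  let f : F → Fin k → Vn := fun t i => (b (Sum.inl i) : Vn) + t • (b (Sum.inr i) : Vn)
  have hts : ∀ t, C.σ t * t = -1 → ∀ u ∈ Submodule.span F (Set.range (f t)),
      ∀ v ∈ Submodule.span F (Set.range (f t)), H u v = 0 := by
    intro t ht
    have hff : ∀ i j, H (f t i) (f t j) = 0 := fun i j => by
      simp only [f, form_add_left, form_add_right C, form_smul_left, form_smul_right C, hb]
      by_cases h : i = j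
      · subst h; simp; linear_combination ht
      · simp [h]
    intro u hu
    induction hu using Submodule.span_induction with
    | mem x hx =>
      obtain ⟨i, rfl⟩ := hx
      intro v hv
      induction hv using Submodule.span_induction with
      | mem y hy => obtain ⟨j, rfl⟩ := hy; exact hff i j
      | zero => exact form_zero_right C _
      | add y z _ _ h1 h2 => rw [form_add_right C, h1, h2, add_zero]
      | smul a y _ h1 => rw [form_smul_right C, h1, mul_zero]
    | zero => exact fun v _ => form_zero_left v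
    | add x y _ _ h1 h2 => intro v hv; rw [form_add_left, h1 v hv, h2 v hv, add_zero]
    | smul a x _ h1 => intro v hv; rw [form_smul_left, h1 v hv, mul_zero]
  have hμ' : C.σ (μ * ν) * (μ * ν) = -1 := by
    rw [map_mul]; linear_combination (C.σ ν * ν) * hμ - hν1
  have hfE : ∀ t i, f t i ∈ E := fun t i => E.add_mem (b _).2 (E.smul_mem _ (b _).2)
  refine ⟨Submodule.span F (Set.range (f μ)), Submodule.span F (Set.range (f (μ * ν))), le_antisymm ?_ ?_,
    hts μ hμ, hts _ hμ', ?_, ?_⟩
  · exact sup_le (Submodule.span_le.2 (by rintro _ ⟨i, rfl⟩; exact hfE _ i))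
      (Submodule.span_le.2 (by rintro _ ⟨i, rfl⟩; exact hfE _ i))
  · have hμ0 : μ ≠ 0 := by rintro rfl; simp at hμ
    have hne : μ - μ * ν ≠ 0 := by
      rw [show μ - μ * ν = μ * (1 - ν) by ring]
      exact mul_ne_zero hμ0 (sub_ne_zero.2 (Ne.symm hν))
    intro v hv
    have hv' : v = ∑ j, b.equivFun ⟨v, hv⟩ j • (b j : Vn) := by
      have e := congrArg Subtype.val (b.sum_equivFun ⟨v, hv⟩).symm
      rw [Submodule.coe_sum] at e
      exact e
    rw [hv']
    refine Submodule.sum_mem _ fun j _ => Submodule.smul_mem _ _ ?_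
    have hr : ∀ i, (b (Sum.inr i) : Vn) ∈ Submodule.span F (Set.range (f μ)) ⊔ Submodule.span F (Set.range (f (μ * ν))) := fun i => by
      have e : (b (Sum.inr i) : Vn) = (μ - μ * ν)⁻¹ • (f μ i - f (μ * ν) i) := by
        simp only [f]
        rw [add_sub_add_left_eq_sub, ← sub_smul, smul_smul, inv_mul_cancel₀ hne, one_smul]
      rw [e]
      exact Submodule.smul_mem _ _ (Submodule.sub_mem _
        (Submodule.mem_sup_left (Submodule.subset_span ⟨i, rfl⟩)) (Submodule.mem_sup_right (Submodule.subset_span ⟨i, rfl⟩)))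
    rcases j with i | i
    · have e : (b (Sum.inl i) : Vn) = f μ i - μ • (b (Sum.inr i) : Vn) := by simp [f]
      rw [e]
      exact Submodule.sub_mem _ (Submodule.mem_sup_left (Submodule.subset_span ⟨i, rfl⟩)) (Submodule.smul_mem _ _ (hr i))
    · exact hr i
  · have h := finrank_range_le_card (R := F) (f μ)
    rw [Fintype.card_fin] at h
    exact le_trans (Nat.mul_le_mul_left 2 h) (le_of_eq (by rw [hk]; ring))
  · have h := finrank_range_le_card (R := F) (f (μ * ν))
    rw [Fintype.card_fin] at h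
    exact le_trans (Nat.mul_le_mul_left 2 h) (le_of_eq (by rw [hk]; ring))

end CfsgLib.UPairs
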