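import Cfsg.Agent.UPairs.Basic

set_option autoImplicit false

/-! Transitivity on pairs and the index of the stabilizer of a pair. -/

namespace CfsgLib.UPairs

open Matrix CfsgLib.UGeom

variable {F : Type*} [Field F] [Fintype F] {q n : ℕ}

local notation "H" => Cfsg.hermForm n F q
local notation "Vn" => (Fin n → F)
local notation "mat" => (fun (g : GL (Fin n) F) => (g : Matrix (Fin n) (Fin n) F))
local notation "S₀" => Cfsg.GU n F q ⊓ Cfsg.Geo.specialLinear (Fin n) F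

/-- The matrix of an equivalence. -/
noncomputable def glOf (L : Vn ≃ₗ[F] Vn) : GL (Fin n) F where
  val := LinearMap.toMatrix' L.toLinearMap
  inv := LinearMap.toMatrix' L.symm.toLinearMap
  val_inv := by rw [← LinearMap.toMatrix'_comp]; simp
  inv_val := by rw [← LinearMap.toMatrix'_comp]; simp

theorem glOf_mulVec (L : Vn ≃ₗ[F] Vn) (v : Vn) : mat (glOf L) *ᵥ v = L v := by
  show LinearMap.toMatrix' L.toLinearMap *ᵥ v = _
  rw [← Matrix.toLin'_apply, Matrix.toLin'_toMatrix']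
  rfl

theorem hyp_scale (C : Conj F q) {d : ℕ} (c : Fin d → F) (hc : ∀ i, c i ≠ 0) (a b : Fin d ⊕ Fin d → F) :
    hyp C (fun j => Sum.elim c (fun i => (C.σ (c i))⁻¹) j * a j) (fun j => Sum.elim c (fun i => (C.σ (c i))⁻¹) j * b j) =
      hyp C a b := by
  refine Finset.sum_congr rfl fun i _ => ?_
  simp only [Sum.elim_inl, Sum.elim_inr, map_mul, map_inv₀, C.invol]
  have h1 := hc i
  have h2 : C.σ (c i) ≠ 0 := (map_ne_zero C.σ).2 h1
  field_simp

/-- `SU` is transitive on pairs. -/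
theorem exists_transport (C : Conj F q) {d : ℕ} (hn : n = 2 * d) (hd : 0 < d) {U W U' W' : Submodule F Vn}
    (h : Pair q U W) (h' : Pair q U' W') :
    ∃ g ∈ S₀, (∀ u ∈ U, mat g *ᵥ u ∈ U') ∧ ∀ w ∈ W, mat g *ᵥ w ∈ W' := by
  classical
  obtain ⟨L, hL, hLU, hLW⟩ := h.exists_frame C hn
  obtain ⟨L', hL', hLU', hLW'⟩ := h'.exists_frame C hn
  let g₀ := glOf (L.trans L'.symm)
  have hg₀ : g₀ ∈ Cfsg.GU n F q := fun x y => by
    show H (mat g₀ *ᵥ x) (mat g₀ *ᵥ y) = H x y
    rw [glOf_mulVec, glOf_mulVec, hL', LinearEquiv.trans_apply, LinearEquiv.trans_apply,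
      LinearEquiv.apply_symm_apply, LinearEquiv.apply_symm_apply, hL]
  set δ : Fˣ := (Matrix.GeneralLinearGroup.det g₀)⁻¹
  have hδ : δ ^ (q + 1) = 1 := by
    rw [inv_pow, det_pow C ⟨g₀, hg₀⟩, inv_one]
  obtain ⟨ζ, hζ⟩ := IsCyclic.exists_generator (α := Fˣ)
  obtain ⟨e, he : ζ ^ e = δ⟩ := mem_powers_iff_mem_zpowers.2 (hζ δ)
  have hord : orderOf ζ = (q - 1) * (q + 1) := by
    rw [orderOf_eq_card_of_forall_mem_zpowers hζ, Nat.card_units, Nat.card_eq_fintype_card, C.card,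
      mul_comm, ← Nat.sq_sub_sq, one_pow]
  have hdvd : q - 1 ∣ e := by
    have h1 : ζ ^ (e * (q + 1)) = 1 := by rw [pow_mul, he, hδ]
    have h2 := orderOf_dvd_of_pow_eq_one h1
    rw [hord] at h2
    exact Nat.dvd_of_mul_dvd_mul_right (Nat.succ_pos q) h2
  obtain ⟨e', rfl⟩ := hdvd
  set c₀ : F := (((ζ ^ e')⁻¹ : Fˣ) : F) with hc₀
  let c : Fin d → F := fun i => if i = ⟨0, hd⟩ then c₀ else 1
  have hc : ∀ i, c i ≠ 0 := fun i => by simp only [c]; split_ifs <;> simp [hc₀]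
  let w : Fin d ⊕ Fin d → F := Sum.elim c fun i => (C.σ (c i))⁻¹
  have hw : ∀ j, w j ≠ 0 := fun j => by rcases j with i | i <;> simp [w, hc i]
  let T : (Fin d ⊕ Fin d → F) ≃ₗ[F] (Fin d ⊕ Fin d → F) := LinearEquiv.piCongrRight fun j => LinearEquiv.smulOfUnit (Units.mk0 (w j) (hw j))
  have hT : ∀ a j, T a j = w j * a j := fun a j => rfl
  let g₁ := glOf ((L'.trans T).trans L'.symm)
  have hg₁ : g₁ ∈ Cfsg.GU n F q := fun x y => by
    show H (mat g₁ *ᵥ x) (mat g₁ *ᵥ y) = H x y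
    rw [glOf_mulVec, glOf_mulVec, hL', hL' x y]
    simp only [LinearEquiv.trans_apply, LinearEquiv.apply_symm_apply]
    exact hyp_scale C c hc _ _
  have hdet : Matrix.GeneralLinearGroup.det g₁ = δ := by
    apply Units.ext
    show (LinearMap.toMatrix' _).det = (δ : F)
    rw [LinearMap.det_toMatrix']
    have hcomp : ((L'.trans T).trans L'.symm).toLinearMap =
        (L'.symm : (Fin d ⊕ Fin d → F) →ₗ[F] Vn) ∘ₗ
          ((Matrix.toLin' (Matrix.diagonal w)) ∘ₗ (L'.symm.symm : Vn →ₗ[F] (Fin d ⊕ Fin d → F))) := by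
      refine LinearMap.ext fun v => ?_
      simp only [LinearEquiv.coe_coe, LinearMap.comp_apply, LinearEquiv.trans_apply, Matrix.toLin'_apply,
        LinearEquiv.symm_symm]
      congr 1
      funext j
      rw [hT, Matrix.mulVec_diagonal]
    rw [hcomp, LinearMap.det_conj, LinearMap.det_toLin', Matrix.det_diagonal, Fintype.prod_sum_type,
      ← Finset.prod_mul_distrib, Finset.prod_eq_single ⟨0, hd⟩]
    · simp only [w, Sum.elim_inl, Sum.elim_inr, c, if_pos]
      rw [← he, hc₀, C.pow, ← Units.val_pow_eq_pow_val, ← Units.val_inv_eq_inv_val, ← Units.val_mul]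
      congr 1
      rw [inv_pow, inv_inv, mul_comm (q - 1) e', pow_mul, eq_comm]
      conv_rhs => rw [show q = q - 1 + 1 from (Nat.sub_add_cancel (by have := C.two_le; omega)).symm, pow_succ, inv_mul_eq_div, mul_div_assoc, div_self', mul_one]
    · intro i _ hi
      simp [w, c, hi]
    · simp
  refine ⟨g₁ * g₀, Subgroup.mem_inf.2 ⟨mul_mem hg₁ hg₀, ?_⟩, fun u hu => ?_, fun u hu => ?_⟩
  · show Matrix.GeneralLinearGroup.det (g₁ * g₀) = 1
    rw [map_mul, hdet, inv_mul_cancel]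
  all_goals
    show (g₁ * g₀ : GL (Fin n) F).val *ᵥ u ∈ _
    rw [Units.val_mul, ← Matrix.mulVec_mulVec]
    show mat g₁ *ᵥ (mat g₀ *ᵥ u) ∈ _
    rw [glOf_mulVec, glOf_mulVec]
  · refine (hLU' _).2 fun i => ?_
    simp [hT, (hLU u).1 hu i]
  · refine (hLW' _).2 fun i => ?_
    simp [hT, (hLW u).1 hu i]

/-- Primes dividing the index of the stabilizer of a pair. -/
theorem prime_dvd_index (C : Conj F q) {d : ℕ} (hn : n = 2 * d) (hd : 0 < d) {D : Fin 2 → Submodule F Vn} {m : ℕ}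
    (hD : Cfsg.Geo.IsMDecomposition m D) (hs : ∀ i, Cfsg.Geo.IsTotallySingularFor H (D i))
    {r : ℕ} (hr : r.Prime) (hΩ : r ∣ (Cfsg.Geo.decompositionStabilizer D).relIndex S₀) :
    r ∣ q ∨ ∃ a, 2 * a + 1 < n ∧ r ∣ q ^ (2 * a + 1) + 1 := by
  classical
  obtain ⟨L, hL, hLU, hLW⟩ := (pair_of_decomposition C hD hs).exists_frame C hn
  let dual : GL (Fin d) F → Matrix (Fin d) (Fin d) F := fun A => (((A⁻¹ : GL (Fin d) F) : Matrix (Fin d) (Fin d) F).map C.σ)ᵀ
  let M : GL (Fin d) F →* Matrix (Fin d ⊕ Fin d) (Fin d ⊕ Fin d) F :=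
    { toFun := fun A => Matrix.fromBlocks (A : Matrix (Fin d) (Fin d) F) 0 0 (dual A)
      map_one' := by simp [dual]
      map_mul' := fun A B => by
        simp only [Matrix.fromBlocks_multiply, Matrix.mul_zero, Matrix.zero_mul, add_zero, zero_add, Units.val_mul,
          dual, _root_.mul_inv_rev, Matrix.map_mul, Matrix.transpose_mul] }
  let E : GL (Fin d) F → Matrix (Fin n) (Fin n) F := fun A =>
    LinearMap.toMatrix' (L.symm.toLinearMap ∘ₗ Matrix.toLin' (M A) ∘ₗ L.toLinearMap)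
  have hE : ∀ A v, E A *ᵥ v = L.symm (M A *ᵥ L v) := fun A v => by
    rw [← Matrix.toLin'_apply, Matrix.toLin'_toMatrix']
    rfl
  let ρ : GL (Fin d) F →* GL (Fin n) F := MonoidHom.toHomUnits
    { toFun := E
      map_one' := Matrix.ext_of_mulVec_single fun j => by
        rw [hE, map_one, Matrix.one_mulVec, Matrix.one_mulVec, LinearEquiv.symm_apply_apply]
      map_mul' := fun A B => Matrix.ext_of_mulVec_single fun j => by
        rw [← Matrix.mulVec_mulVec, hE, hE, hE, map_mul, LinearEquiv.apply_symm_apply, Matrix.mulVec_mulVec] }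
  have hρ : ∀ A v, mat (ρ A) *ᵥ v = L.symm (M A *ᵥ L v) := fun A v => hE A v
  have hblock : ∀ A (a b : Fin d ⊕ Fin d → F), hyp C (M A *ᵥ a) (M A *ᵥ b) = hyp C a b := by
    intro A a b
    have hyp_eq : ∀ x y : Fin d ⊕ Fin d → F, hyp C x y = (x ∘ Sum.inl) ⬝ᵥ (fun i => C.σ (y (Sum.inr i))) + (x ∘ Sum.inr) ⬝ᵥ (fun i => C.σ (y (Sum.inl i))) :=
      fun x y => Finset.sum_add_distrib
    have hσmul : ∀ (N : Matrix (Fin d) (Fin d) F) (x : Fin d → F), (fun i => C.σ ((N *ᵥ x) i)) = N.map C.σ *ᵥ fun i => C.σ (x i) :=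
      fun N x => funext fun i => RingHom.map_mulVec C.σ N x i
    have e1 : (M A *ᵥ a) ∘ Sum.inl = (A : Matrix (Fin d) (Fin d) F) *ᵥ (a ∘ Sum.inl) := by
      funext i; simp [M, Matrix.fromBlocks_mulVec]
    have e2 : (M A *ᵥ a) ∘ Sum.inr = dual A *ᵥ (a ∘ Sum.inr) := by
      funext i; simp [M, Matrix.fromBlocks_mulVec]
    have e3 : (fun i => C.σ ((M A *ᵥ b) (Sum.inr i))) = ((A⁻¹ : GL (Fin d) F) : Matrix (Fin d) (Fin d) F)ᵀ *ᵥ fun i => C.σ (b (Sum.inr i)) := by
      have h2 : (fun i => (M A *ᵥ b) (Sum.inr i)) = dual A *ᵥ (fun i => b (Sum.inr i)) := by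
        funext i; simp [M, Matrix.fromBlocks_mulVec]; rfl
      have h3 : (dual A).map C.σ = ((A⁻¹ : GL (Fin d) F) : Matrix (Fin d) (Fin d) F)ᵀ := by
        ext i j; simp [dual, C.invol]
      rw [← h3, ← hσmul, ← h2]
    have e4 : (fun i => C.σ ((M A *ᵥ b) (Sum.inl i))) = (A : Matrix (Fin d) (Fin d) F).map C.σ *ᵥ fun i => C.σ (b (Sum.inl i)) := by
      rw [← hσmul]
      funext i; simp [M, Matrix.fromBlocks_mulVec]; rfl
    rw [hyp_eq, hyp_eq, e1, e2, e3, e4]
    congr 1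
    · rw [Matrix.mulVec_transpose, dotProduct_comm, ← Matrix.dotProduct_mulVec, Matrix.mulVec_mulVec,
        ← Units.val_mul, inv_mul_cancel, Units.val_one, Matrix.one_mulVec, dotProduct_comm]
    · simp only [dual]
      rw [Matrix.mulVec_transpose, ← Matrix.dotProduct_mulVec, Matrix.mulVec_mulVec, ← Matrix.map_mul,
        ← Units.val_mul, inv_mul_cancel, Units.val_one, Matrix.map_one _ (map_zero _) (map_one _),
        Matrix.one_mulVec]
  have hρGU : ∀ A, ρ A ∈ Cfsg.GU n F q := fun A x y => by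
    show H (mat (ρ A) *ᵥ x) (mat (ρ A) *ᵥ y) = H x y
    rw [hρ, hρ, hL, hL x y, LinearEquiv.apply_symm_apply, LinearEquiv.apply_symm_apply, hblock]
  let R : Subgroup (GL (Fin n) F) := ρ.range
  have hRGU : R ≤ Cfsg.GU n F q := by rintro _ ⟨A, rfl⟩; exact hρGU A
  have hRstab : R ≤ Cfsg.Geo.decompositionStabilizer D := by
    rintro _ ⟨A, rfl⟩
    refine (mem_stabilizer_iff hD).2 (Or.inl ⟨fun u hu => (hLU _).2 fun i => ?_, fun u hu => (hLW _).2 fun i => ?_⟩)
    · rw [hρ, LinearEquiv.apply_symm_apply]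
      simp [M, Matrix.fromBlocks_mulVec, Matrix.mulVec, dotProduct, (hLU u).1 hu]
    · rw [hρ, LinearEquiv.apply_symm_apply]
      simp [M, Matrix.fromBlocks_mulVec, Matrix.mulVec, dotProduct, (hLW u).1 hu]
  have hρinj : Function.Injective ρ := fun A B h => by
    refine Units.ext (Matrix.ext_of_mulVec_single fun j => funext fun i => ?_)
    have h1 := congrArg (fun g : GL (Fin n) F => L (mat g *ᵥ L.symm (Sum.elim (Pi.single j 1) 0)) (Sum.inl i)) h
    simpa [hρ, M, Matrix.fromBlocks_mulVec] using h1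
  have h1 : r ∣ (R ⊓ S₀).relIndex S₀ :=
    hΩ.trans (by
      have e : (Cfsg.Geo.decompositionStabilizer D ⊓ S₀).relIndex S₀ =
          (Cfsg.Geo.decompositionStabilizer D).relIndex S₀ := Subgroup.inf_relIndex_right ..
      rw [← e]
      exact Subgroup.relIndex_dvd_of_le_left _ (inf_le_inf_right _ hRstab))
  have hcardR : Nat.card R = Nat.card (GL (Fin d) F) := (Nat.card_congr (MonoidHom.ofInjective hρinj).toEquiv).symm
  let f : R →* Fˣ := Matrix.GeneralLinearGroup.det.comp R.subtype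
  have hker : Nat.card f.ker = Nat.card ↥(R ⊓ S₀) := Nat.card_congr
    { toFun := fun g => ⟨g.1.1, g.1.2, hRGU g.1.2, g.2⟩
      invFun := fun g => ⟨⟨g.1, g.2.1⟩, g.2.2.2⟩
      left_inv := fun g => rfl
      right_inv := fun g => rfl }
  have hrange : Nat.card f.range ∣ q + 1 := by
    rw [← card_norm_one C, show Nat.card {u : Fˣ // u ^ (q + 1) = 1} = Nat.card (powMonoidHom (q + 1) : Fˣ →* Fˣ).ker from
      Nat.card_congr (Equiv.subtypeEquivRight fun u => by simp [MonoidHom.mem_ker])]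
    refine Subgroup.card_dvd_of_le ?_
    rintro _ ⟨g, rfl⟩
    exact det_pow C ⟨g.1, hRGU g.2⟩
  have hR : Nat.card R = Nat.card ↥(R ⊓ S₀) * Nat.card f.range := by
    rw [← hker, ← Subgroup.index_ker f]; exact f.ker.card_mul_index.symm
  have hS : (R ⊓ S₀).relIndex S₀ * Nat.card ↥(R ⊓ S₀) = Nat.card ↥S₀ := by
    rw [mul_comm, ← Subgroup.card_mul_index ((R ⊓ S₀).subgroupOf S₀),
      Nat.card_congr (Subgroup.subgroupOfEquivOfLe (inf_le_right : R ⊓ S₀ ≤ S₀)).toEquiv]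
    rfl
  have hSU : (q + 1) * Nat.card ↥S₀ = Nat.card (Cfsg.GU n F q) := by
    rw [← card_SU_mul C (show 1 ≤ n by omega)]
    congr 1
    exact Nat.card_congr
      { toFun := fun g => ⟨⟨g.1.1, congrArg Units.val (show Matrix.GeneralLinearGroup.det g.1 = 1 from g.2.2)⟩, g.2.1⟩
        invFun := fun s => ⟨Matrix.SpecialLinearGroup.toGL s.1, s.2, Units.ext s.1.2⟩
        left_inv := fun g => Subtype.ext (Units.ext rfl)
        right_inv := fun s => Subtype.ext (Subtype.ext rfl) }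
  have hkey : (R ⊓ S₀).relIndex S₀ * (q + 1) * Nat.card (GL (Fin d) F) = Nat.card (Cfsg.GU n F q) * Nat.card f.range := by
    rw [← hcardR, hR, ← hSU, ← hS]; ring
  rw [card_GU C, Matrix.card_GL_field, C.card] at hkey
  generalize (R ⊓ S₀).relIndex S₀ = X at h1 hkey
  generalize Nat.card f.range = t at hrange hkey
  rw [hn] at hkey
  have hprod : ∀ k, ∏ i ∈ Finset.range (2 * k), (if Even i then q ^ (i + 1) + 1 else q ^ (i + 1) - 1) =
      (∏ i ∈ Finset.range k, (q ^ (2 * (i + 1)) - 1)) * ∏ i ∈ Finset.range k, (q ^ (2 * i + 1) + 1) := by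
    intro k
    induction k with
    | zero => simp
    | succ k ih =>
      rw [show 2 * (k + 1) = 2 * k + 1 + 1 by ring, Finset.prod_range_succ, Finset.prod_range_succ, ih,
        Finset.prod_range_succ, Finset.prod_range_succ, if_pos (even_two_mul k),
        if_neg (Nat.not_even_iff_odd.2 (odd_two_mul_add_one k)), show 2 * k + 1 + 1 = 2 * (k + 1) by ring]
      ring
  have hgl : ∏ i : Fin d, ((q ^ 2) ^ d - (q ^ 2) ^ (i : ℕ)) =
      q ^ (d * (d - 1)) * ∏ i ∈ Finset.range d, (q ^ (2 * (i + 1)) - 1) := by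
    rw [Fin.prod_univ_eq_prod_range (fun i => (q ^ 2) ^ d - (q ^ 2) ^ i) d,
      show ∀ X, q ^ (d * (d - 1)) * X = q ^ (2 * ∑ i ∈ Finset.range d, i) * X from fun X => by
        rw [mul_comm 2, Finset.sum_range_id_mul_two],
      pow_mul, ← Finset.prod_pow_eq_pow_sum, ← Finset.prod_range_reflect (fun i => q ^ (2 * (i + 1)) - 1),
      ← Finset.prod_mul_distrib]
    refine Finset.prod_congr rfl fun i hi => ?_
    rw [Finset.mem_range] at hi
    rw [Nat.mul_sub, mul_one, pow_mul, ← pow_add, show i + (d - 1 - i + 1) = d by omega]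
  rw [hgl, hprod] at hkey
  obtain ⟨e, he⟩ : ∃ e, 2 * d * (2 * d - 1) / 2 = d * (d - 1) + e := by
    refine Nat.exists_eq_add_of_le ?_
    rw [Nat.mul_assoc, Nat.mul_div_cancel_left _ two_pos]
    exact Nat.mul_le_mul_left d (by omega)
  rw [he, pow_add] at hkey
  have hq2 := C.two_le
  have hpos : 0 < q ^ (d * (d - 1)) * ∏ i ∈ Finset.range d, (q ^ (2 * (i + 1)) - 1) :=
    Nat.mul_pos (pow_pos (by omega) _) (Finset.prod_pos fun i _ => by
      have : 1 < q ^ (2 * (i + 1)) := Nat.one_lt_pow (by omega) (by omega)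
      omega)
  have hX : X * (q + 1) = q ^ e * (∏ i ∈ Finset.range d, (q ^ (2 * i + 1) + 1)) * t := by
    refine Nat.eq_of_mul_eq_mul_right hpos ?_
    rw [hkey]; ring
  have h2 := dvd_mul_of_dvd_left h1 (q + 1)
  rw [hX] at h2
  rcases hr.dvd_mul.1 h2 with h | h
  · rcases hr.dvd_mul.1 h with h | h
    · exact Or.inl (hr.dvd_of_dvd_pow h)
    · obtain ⟨a, ha, har⟩ := (hr.prime.dvd_finsetProd_iff _).1 h
      exact Or.inr ⟨a, by have := Finset.mem_range.1 ha; omega, har⟩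
  · exact Or.inr ⟨0, by omega, by simpa using h.trans hrange⟩

end CfsgLib.UPairs
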